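import Cfsg.Agent.Lib.HN.A12c
import Cfsg.Agent.Lib.CGT.Real
import Cfsg.Agent.Lib.Pres.Carm
/-! the subgroup A12 of HN -/
set_option autoImplicit false
set_option maxRecDepth 100000
namespace H54.HN
open Cfsg.Spor H15.Mdl
open MulAction
theorem exists_carm : ∃ f : H40.Alt.AA (Fin 10) →* HN, ∀ i, f (H40.Alt.xa i) = cg i := by
  have h2 : ∀ i j : Fin 10, j < i → (cg i * cg j) ^ 2 = 1 := fun i j h => by
    have := carm [2 * i, 2 * j, 2 * i, 2 * j] (by revert i j; decide +kernel)
    simpa only [evW_cons, evW_nil, xl_even, mul_one, pow_two, mul_assoc] using this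
  refine H40.Alt.carm_hom _ (fun i => ?_) fun i j h => ?_
  · have := carm [2 * i, 2 * i, 2 * i] (by revert i; decide +kernel)
    simpa only [evW_cons, evW_nil, xl_even, mul_one, pow_three, mul_assoc] using this
  · rcases lt_or_gt_of_ne h with h | h
    · have := congrArg (fun a => (cg j)⁻¹ * a * cg j) (h2 j i h)
      simpa [pow_two, mul_assoc] using this
    · exact h2 i j h
/-- the embedding of the alternating group on 12 points -/
noncomputable def fA : H40.Alt.AA (Fin 10) →* HN := exists_carm.choose
theorem fA_xa (i : Fin 10) : fA (H40.Alt.xa i) = cg i := exists_carm.choose_spec i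
theorem fA_inj : Function.Injective fA :=
  haveI := alternatingGroup.isSimpleGroup (α := Fin 10 ⊕ Bool) (by simp)
  inj_of_simple fA (g := H40.Alt.xa 0) fun h => c_mx.ne_oneφ (sound_Fp m_fp) (w := [0]) (by decide +kernel)
    ((mul_one _).trans ((fA_xa 0).symm.trans h))
theorem equivA : Nonempty (fA.range ≃* alternatingGroup (Fin 12)) :=
  ⟨(MonoidHom.ofInjective fA_inj).symm.trans (Equiv.altCongrHom (Fintype.equivFinOfCardEq (by simp)))⟩
theorem indexA : fA.range.index = 1140000 := by
  have h := fA.range.card_mul_index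
  have h2 := H40.Alt.two_mul_card_AA (ι := Fin 10)
  rw [card, ← Nat.card_congr (MonoidHom.ofInjective fA_inj).toEquiv] at h
  rw [show Nat.card (H40.Alt.AA (Fin 10)) = 239500800 by
    simp only [Fintype.card_fin, Nat.factorial] at h2; omega] at h
  omega
theorem faithfulA (g : HN) (h : ∀ a : HN ⧸ fA.range, g • a = a) : g = 1 := by
  have := simple
  refine (IsSimpleGroup.eq_bot_or_eq_top_of_normal fA.range.normalCore inferInstance).elim
    (fun e => ?_) fun e => ?_
  · rw [Subgroup.normalCore_eq_ker] at e
    exact (e ▸ Equiv.ext h : g ∈ (⊥ : Subgroup HN))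
  · have := indexA
    rw [show fA.range = ⊤ from top_le_iff.1 (e ▸ fA.range.normalCore_le), Subgroup.index_top] at this; omega
end H54.HN
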